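import Cfsg.Agent.FiF4.Thompson
import Cfsg.Prelude.Def_Transfer

/-!
# Classes of type M(22): the Thompson subgroup of a Sylow 2-subgroup
-/

set_option autoImplicit false
set_option linter.unusedSectionVars false

namespace Cfsg.Agent.FiF4

open Cfsg.Agent.ThreeTransp Cfsg.Agent.Fi22
open scoped Pointwise

variable {G : Type*} [Group G] {D : Set G} [Finite G]

theorem conj_closure_mem {E : Set G} {t : G} (htE : ∀ a ∈ E, t * a * t⁻¹ ∈ E) {j : G} (hj : j ∈ Subgroup.closure E) :
    t * j * t⁻¹ ∈ Subgroup.closure E := by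
  induction hj using Subgroup.closure_induction with
  | mem x hx => exact Subgroup.subset_closure (htE x hx)
  | one => simp
  | mul x y _ _ hx hy =>
    have : t * (x * y) * t⁻¹ = (t * x * t⁻¹) * (t * y * t⁻¹) := by group
    rw [this]; exact mul_mem hx hy
  | inv x _ hx =>
    have : t * x⁻¹ * t⁻¹ = (t * x * t⁻¹)⁻¹ := by group
    rw [this]; exact inv_mem hx

/-- `b ↦ b * b^t` is at most two to one on the members moved by `t` -/
theorem Max.two_to_one (h : H22 D) {E : Set G} (hE : Max D E) {t : G} (ht : t * t = 1)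
    (htE : ∀ a ∈ E, t * a * t⁻¹ ∈ E) {b b' : G} (hb : b ∈ E) (hbt : ¬ Commute b t) (hb' : b' ∈ E)
    (heq : b * (t * b * t⁻¹) = b' * (t * b' * t⁻¹)) : b' = b ∨ b' = t * b * t⁻¹ := by
  have hti : t⁻¹ = t := inv_eq_of_mul_eq_one_left ht
  have hne : ∀ x, ¬ Commute x t → x ≠ t * x * t⁻¹ := by
    intro x hx h1
    apply hx
    show x * t = t * x
    nth_rewrite 1 [h1]
    group
  have hsq : ∀ x ∈ E, x * x = 1 := fun x hx => mul_self h.cls.1 (hE.sub hx)
  have hfact : ∀ x ∈ E, ¬ Commute x t → IsFact D 2 (x * (t * x * t⁻¹)) [x, t * x * t⁻¹] := by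
    intro x hx hxt
    refine ⟨by simpa using hne x hxt, rfl, ?_, ?_, by simp⟩
    · intro y hy
      simp only [List.mem_cons, List.not_mem_nil, or_false] at hy
      rcases hy with rfl | rfl
      · exact hE.sub hx
      · exact hE.sub (htE x hx)
    · intro y hy z hz
      simp only [List.mem_cons, List.not_mem_nil, or_false] at hy hz
      have hy' : y ∈ E := by
        rcases hy with rfl | rfl
        · exact hx
        · exact htE x hx
      have hz' : z ∈ E := by
        rcases hz with rfl | rfl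
        · exact hx
        · exact htE x hx
      exact hE.comm y hy' z hz'
  have hb't : ¬ Commute b' t := by
    intro h1
    have h2 : t * b' * t⁻¹ = b' := by rw [← h1.eq, mul_inv_cancel_right]
    rw [h2, hsq b' hb'] at heq
    apply hne b hbt
    have h3 := eq_inv_of_mul_eq_one_right heq
    rw [inv_eq_of_mul_eq_one_left (hsq b hb)] at h3
    exact h3.symm
  have f1 := hfact b hb hbt
  have f2 := hfact b' hb' hb't
  rw [← heq] at f2
  have h3 := h.fact_two f2 f1 b' (by simp)
  simpa using h3

/-- **The centraliser in `J` of an involution outside `J` has order at most `2 ^ 6`.** -/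
theorem Max.card_cent_le (h : H22 D) {E : Set G} (hE : Max D E) {t : G} (ht : t * t = 1)
    (htJ : t ∉ Subgroup.closure E) (htE : ∀ a ∈ E, t * a * t⁻¹ ∈ E) :
    Nat.card ↥(Subgroup.closure E ⊓ Subgroup.centralizer ({t} : Set G)) ≤ 2 ^ 6 := by
  classical
  set J := Subgroup.closure E with hJ
  have hsq : ∀ x ∈ E, x * x = 1 := fun x hx => mul_self h.cls.1 (hE.sub hx)
  have hJJ : ∀ j ∈ J, j * j = 1 := fun j hj => closure_sq hE.comm hsq hj
  have htJ' : ∀ j ∈ J, t * j * t⁻¹ ∈ J := fun j hj => conj_closure_mem htE hj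
  let κ : J →* G :=
    { toFun := fun j => (j : G) * (t * j * t⁻¹)
      map_one' := by simp
      map_mul' := fun x y => by
        have hc := (closure_comm hE.comm y.2 (htJ' x x.2)).eq
        show (x * y : G) * (t * (x * y) * t⁻¹) = x * (t * x * t⁻¹) * (y * (t * y * t⁻¹))
        calc (x * y : G) * (t * (x * y) * t⁻¹) = x * (y * (t * x * t⁻¹)) * (t * y * t⁻¹) := by group
          _ = x * ((t * x * t⁻¹) * y) * (t * y * t⁻¹) := by rw [hc]
          _ = _ := by group }
  have hκ : ∀ j : J, κ j = (j : G) * (t * j * t⁻¹) := fun _ => rfl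
  have hker : κ.ker.map J.subtype = J ⊓ Subgroup.centralizer ({t} : Set G) := by
    ext x
    rw [Subgroup.mem_map, Subgroup.mem_inf, Subgroup.mem_centralizer_singleton_iff]
    constructor
    · rintro ⟨y, hy, rfl⟩
      refine ⟨y.2, ?_⟩
      rw [MonoidHom.mem_ker, hκ] at hy
      have h1 := eq_inv_of_mul_eq_one_right hy
      rw [inv_eq_of_mul_eq_one_left (hJJ y y.2)] at h1
      exact (mul_inv_eq_iff_eq_mul.1 h1).symm
    · rintro ⟨h1, h2⟩
      refine ⟨⟨x, h1⟩, ?_, rfl⟩
      rw [MonoidHom.mem_ker, hκ]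
      show x * (t * x * t⁻¹) = 1
      have h3 : t * x * t⁻¹ = x := by rw [← h2, mul_inv_cancel_right]
      rw [h3, hJJ x h1]
  have hcardker : Nat.card κ.ker = Nat.card ↥(J ⊓ Subgroup.centralizer ({t} : Set G)) := by
    rw [← hker]
    exact Nat.card_congr (κ.ker.equivMapOfInjective J.subtype J.subtype_injective).toEquiv
  have hJcard := Max.card_closure h hE
  have h1 := Subgroup.card_mul_index κ.ker
  rw [Subgroup.index_ker, hcardker] at h1
  change _ = Nat.card ↥(Subgroup.closure E) at h1
  rw [hJcard] at h1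
  -- the range has at least nine elements
  set M : Finset G := ((Set.toFinite E).toFinset).filter fun b => ¬ Commute b t with hM
  have hmemM : ∀ b, b ∈ M ↔ b ∈ E ∧ ¬ Commute b t := by
    intro b; rw [hM, Finset.mem_filter, Set.Finite.mem_toFinset]
  have hMc : 16 ≤ M.card := by
    have h2 : ((Set.toFinite E).toFinset).card = 22 := by
      rw [← Max.ncard h hE, Set.ncard_eq_toFinset_card E]
    have h3 := Finset.card_filter_add_card_filter_not (s := (Set.toFinite E).toFinset) (fun b => Commute b t)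
    rw [h2] at h3
    have h4 : (((Set.toFinite E).toFinset).filter fun b => Commute b t).card ≤ 6 := by
      have h5 : ((((Set.toFinite E).toFinset).filter fun b => Commute b t : Finset G) : Set G) =
          {a | a ∈ E ∧ Commute a t} := by
        ext x; simp
      rw [← Set.ncard_coe_finset, h5]
      by_cases h6 : ∃ d ∈ E, Commute d t
      · obtain ⟨d, hd, hdt⟩ := h6
        rw [Max.card_fixed h hE ht htJ htE hd hdt]
      · have h7 : {a | a ∈ E ∧ Commute a t} = ∅ := by
          rw [Set.eq_empty_iff_forall_notMem]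
          rintro x ⟨hx1, hx2⟩
          exact h6 ⟨x, hx1, hx2⟩
        rw [h7, Set.ncard_empty]; omega
    rw [hM]
    omega
  have himg : M.card ≤ 2 * (M.image fun b => b * (t * b * t⁻¹)).card := by
    apply Finset.card_le_mul_card_image
    intro y hy
    obtain ⟨b, hb, rfl⟩ := Finset.mem_image.1 hy
    have hb' := (hmemM b).1 hb
    have hsub : (M.filter fun x => x * (t * x * t⁻¹) = b * (t * b * t⁻¹)) ⊆ {b, t * b * t⁻¹} := by
      intro x hx
      rw [Finset.mem_filter, hmemM] at hx
      rw [Finset.mem_insert, Finset.mem_singleton]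
      exact Max.two_to_one h hE ht htE hb'.1 hb'.2 hx.1.1 hx.2.symm
    exact (Finset.card_le_card hsub).trans Finset.card_le_two
  have hrange : (insert (1 : G) (M.image fun b => b * (t * b * t⁻¹)) : Finset G).card ≤ Nat.card κ.range := by
    have h2 : Nat.card κ.range = ((κ.range : Subgroup G) : Set G).ncard := rfl
    rw [h2, ← Set.ncard_coe_finset]
    apply Set.ncard_le_ncard _ (Set.toFinite _)
    intro y hy
    rw [Finset.mem_coe, Finset.mem_insert, Finset.mem_image] at hy
    rcases hy with rfl | ⟨b, hb, rfl⟩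
    · exact one_mem _
    · exact ⟨⟨b, Subgroup.subset_closure ((hmemM b).1 hb).1⟩, rfl⟩
  rw [Finset.card_insert_of_notMem] at hrange
  · have h9 : 9 ≤ Nat.card κ.range := by omega
    have hdvd : Nat.card κ.range ∣ 2 ^ 10 := ⟨_, by rw [← h1, mul_comm]⟩
    obtain ⟨k, hk, hk2⟩ := (Nat.dvd_prime_pow Nat.prime_two).1 hdvd
    have hk4 : 4 ≤ k := by
      by_contra hlt
      have : 2 ^ k ≤ 2 ^ 3 := Nat.pow_le_pow_right (by norm_num) (by omega)
      rw [hk2] at h9
      norm_num at this
      omega
    rw [hk2] at h1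
    have h10 : 2 ^ 4 ≤ 2 ^ k := Nat.pow_le_pow_right (by norm_num) hk4
    by_contra hcon
    push Not at hcon
    have h11 := Nat.mul_le_mul hcon.le h10
    have h12 : 2 ^ 6 * 2 ^ 4 < Nat.card ↥(J ⊓ Subgroup.centralizer ({t} : Set G)) * 2 ^ k :=
      Nat.mul_lt_mul_of_lt_of_le hcon h10 (by positivity)
    rw [h1] at h12
    norm_num at h12
  · rw [Finset.mem_image]
    rintro ⟨b, hb, hb1⟩
    obtain ⟨hb2, hb3⟩ := (hmemM b).1 hb
    apply hb3
    have h2 := eq_inv_of_mul_eq_one_right hb1
    rw [inv_eq_of_mul_eq_one_left (hsq b hb2)] at h2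
    exact (mul_inv_eq_iff_eq_mul.1 h2).symm

/-- Involutions with the same centraliser in `J` are congruent modulo `J`. -/
theorem Max.mul_mem_of_cent_eq (h : H22 D) {E : Set G} (hE : Max D E) {t s : G} (ht : t * t = 1)
    (hs : s * s = 1) (htE : ∀ a ∈ E, t * a * t⁻¹ ∈ E) (hsE : ∀ a ∈ E, s * a * s⁻¹ ∈ E)
    (hts : ∀ j ∈ Subgroup.closure E, Commute j t ↔ Commute j s) : t * s ∈ Subgroup.closure E := by
  have hti : t⁻¹ = t := inv_eq_of_mul_eq_one_left ht
  have hsi : s⁻¹ = s := inv_eq_of_mul_eq_one_left hs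
  apply Max.mem_of_commute h hE
  intro b hb
  have hbJ := Subgroup.subset_closure hb
  by_cases hbt : Commute b t
  · exact hbt.mul_right ((hts b hbJ).1 hbt)
  · have hbs : ¬ Commute b s := fun h1 => hbt ((hts b hbJ).2 h1)
    set b' := t * b * t⁻¹ with hb'
    have hb'E : b' ∈ E := htE b hb
    have htb' : t * b' * t⁻¹ = b := by
      rw [hb']
      calc t * (t * b * t⁻¹) * t⁻¹ = (t * t) * b * (t * t)⁻¹ := by group
        _ = b := by rw [ht]; group
    have h1 : Commute (b * b') t := by
      have h2 : t * (b * b') * t⁻¹ = b * b' := by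
        have : t * (b * b') * t⁻¹ = (t * b * t⁻¹) * (t * b' * t⁻¹) := by group
        rw [this, htb', ← hb', (hE.comm b' hb'E b hb).eq]
      exact (mul_inv_eq_iff_eq_mul.1 h2).symm
    have h2 : Commute (b * b') s := (hts _ (mul_mem hbJ (Subgroup.subset_closure hb'E))).1 h1
    -- `b * b^t = x * x^s`
    have h3 : s * b * s⁻¹ = b' := by
      have h4 : (s * b * s⁻¹) * (s * b' * s⁻¹) = b * b' := by
        have : (s * b * s⁻¹) * (s * b' * s⁻¹) = s * (b * b') * s⁻¹ := by group
        rw [this, ← h2.eq, mul_inv_cancel_right]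
      have hne : s * b * s⁻¹ ≠ b := by
        intro h5
        exact hbs (mul_inv_eq_iff_eq_mul.1 h5).symm
      have hbb' : b ≠ b' := by
        intro h5
        apply hbt
        rw [hb'] at h5
        exact (mul_inv_eq_iff_eq_mul.1 h5.symm).symm
      have f1 : IsFact D 2 (b * b') [b, b'] := by
        refine ⟨by simpa using hbb', rfl, ?_, ?_, by simp⟩
        · intro y hy
          simp only [List.mem_cons, List.not_mem_nil, or_false] at hy
          rcases hy with rfl | rfl
          · exact hE.sub hb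
          · exact hE.sub hb'E
        · intro y hy z hz
          simp only [List.mem_cons, List.not_mem_nil, or_false] at hy hz
          have hy' : y ∈ E := by
            rcases hy with rfl | rfl
            · exact hb
            · exact hb'E
          have hz' : z ∈ E := by
            rcases hz with rfl | rfl
            · exact hb
            · exact hb'E
          exact hE.comm y hy' z hz'
      have f2 := fact_conj h.hconj s f1
      have h6 : s * (b * b') * s⁻¹ = b * b' := by rw [← h2.eq, mul_inv_cancel_right]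
      rw [h6] at f2
      have h7 := h.fact_two f2 f1 (s * b * s⁻¹) (by simp)
      simp only [List.mem_cons, List.not_mem_nil, or_false] at h7
      exact h7.resolve_left hne
    have h4 : (t * s) * b * (t * s)⁻¹ = b := by
      calc (t * s) * b * (t * s)⁻¹ = t * (s * b * s⁻¹) * t⁻¹ := by group
        _ = b := by rw [h3, htb']
    exact (mul_inv_eq_iff_eq_mul.1 h4).symm

/-- the conjugation action of `A` on `E` -/
def conjAct {E : Set G} {A : Subgroup G} (hAE : ∀ a ∈ A, ∀ e ∈ E, a * e * a⁻¹ ∈ E) : MulAction A E where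
  smul a e := ⟨(a : G) * e * (a : G)⁻¹, hAE a a.2 e e.2⟩
  one_smul e := Subtype.ext (by show (1 : G) * e * (1 : G)⁻¹ = e; simp)
  mul_smul a b e := Subtype.ext (by
    show ((a : G) * (b : G)) * e * ((a : G) * (b : G))⁻¹ = (a : G) * ((b : G) * e * (b : G)⁻¹) * (a : G)⁻¹
    group)

/-- **Elementary abelian subgroups normalising `E` and not contained in `J` have order less than `2 ^ 10`.** -/
theorem Max.card_lt (h : H22 D) {E : Set G} (hE : Max D E) {A : Subgroup G} (hAc : ∀ a ∈ A, ∀ b ∈ A, a * b = b * a)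
    (hA2 : ∀ a ∈ A, a * a = 1) (hAE : ∀ a ∈ A, ∀ e ∈ E, a * e * a⁻¹ ∈ E) (hAJ : ¬ A ≤ Subgroup.closure E) :
    Nat.card A < 2 ^ 10 := by
  classical
  set J := Subgroup.closure E with hJ
  let _ : MulAction A E := conjAct hAE
  set φ : A →* Equiv.Perm E := MulAction.toPermHom A E with hφ
  have hφ1 : ∀ (a : A) (e : E), ((φ a e : E) : G) = (a : G) * e * (a : G)⁻¹ := fun _ _ => rfl
  have hker : ∀ a : A, φ a = 1 ↔ (a : G) ∈ J := by
    intro a
    constructor
    · intro h1
      apply Max.mem_of_commute h hE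
      intro e he
      have h2 := hφ1 a ⟨e, he⟩
      rw [h1, Equiv.Perm.one_apply] at h2
      exact (mul_inv_eq_iff_eq_mul.1 h2.symm).symm
    · intro h1
      ext e
      rw [hφ1, Equiv.Perm.one_apply]
      have h2 := closure_comm hE.comm h1 (Subgroup.subset_closure e.2)
      rw [h2.eq, mul_inv_cancel_right]
  have hcardA : Nat.card φ.ker * Nat.card φ.range = Nat.card A := by
    rw [← Subgroup.index_ker]; exact Subgroup.card_mul_index _
  -- the order of the image is at most sixteen
  have hQp : IsPGroup 2 φ.range := by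
    rintro ⟨_, a, rfl⟩
    refine ⟨1, Subtype.ext ?_⟩
    show (φ a) ^ 2 ^ 1 = 1
    rw [pow_one, ← map_pow, sq]
    have : a * a = 1 := Subtype.ext (hA2 a a.2)
    rw [this, map_one]
  have : Fact (Nat.Prime 2) := ⟨Nat.prime_two⟩
  obtain ⟨k, hk⟩ := hQp.exists_card_eq
  have hk4 : k ≤ 4 := by
    by_contra hlt
    have h5 : 2 ^ 5 ∣ Nat.card φ.range := by rw [hk]; exact pow_dvd_pow _ (by omega)
    obtain ⟨Q, hQ⟩ := Sylow.exists_subgroup_card_pow_prime 2 h5
    refine card_ne_32 (X := E) (Q := Q) ?_ ?_ ?_ (by rw [hQ]; norm_num)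
    · rw [Nat.card_coe_set_eq]; exact Max.ncard h hE
    · rintro ⟨⟨_, a, rfl⟩, _⟩ ⟨⟨_, b, rfl⟩, _⟩
      apply Subtype.ext
      apply Subtype.ext
      show φ a * φ b = φ b * φ a
      rw [← map_mul, ← map_mul]
      congr 1
      exact Subtype.ext (hAc a a.2 b b.2)
    · rintro ⟨⟨_, a, rfl⟩, hq⟩ hne
      have haJ : (a : G) ∉ J := by
        intro h6
        apply hne
        apply Subtype.ext
        apply Subtype.ext
        exact (hker a).2 h6
      have hset : (MulAction.fixedBy E (⟨⟨φ a, a, rfl⟩, hq⟩ : Q)).ncard = {e | e ∈ E ∧ Commute e (a : G)}.ncard := by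
        rw [← Set.ncard_image_of_injective (MulAction.fixedBy E (⟨⟨φ a, a, rfl⟩, hq⟩ : Q)) Subtype.val_injective]
        congr 1
        ext x
        rw [Set.mem_image, Set.mem_setOf_eq]
        constructor
        · rintro ⟨e, he, rfl⟩
          refine ⟨e.2, ?_⟩
          have h7 : φ a e = e := he
          have h8 := hφ1 a e
          rw [h7] at h8
          exact (mul_inv_eq_iff_eq_mul.1 h8.symm).symm
        · rintro ⟨hx1, hx2⟩
          refine ⟨⟨x, hx1⟩, ?_, rfl⟩
          show φ a ⟨x, hx1⟩ = ⟨x, hx1⟩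
          apply Subtype.ext
          rw [hφ1]
          show (a : G) * x * (a : G)⁻¹ = x
          rw [← hx2.eq, mul_inv_cancel_right]
      rw [hset]
      by_cases h6 : ∃ d ∈ E, Commute d (a : G)
      · obtain ⟨d, hd, hda⟩ := h6
        right
        exact Max.card_fixed h hE (hA2 a a.2) haJ (hAE a a.2) hd hda
      · left
        have h7 : {e | e ∈ E ∧ Commute e (a : G)} = ∅ := by
          rw [Set.eq_empty_iff_forall_notMem]
          rintro x ⟨hx1, hx2⟩
          exact h6 ⟨x, hx1, hx2⟩
        rw [h7, Set.ncard_empty]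
  -- the kernel centralises `A`
  set C := J ⊓ Subgroup.centralizer (A : Set G) with hC
  have hkerle : Nat.card φ.ker ≤ Nat.card C := by
    have h1 : φ.ker.map A.subtype ≤ C := by
      rintro _ ⟨a, ha, rfl⟩
      refine ⟨(hker a).1 ha, ?_⟩
      show (a : G) ∈ Subgroup.centralizer (A : Set G)
      rw [Subgroup.mem_centralizer_iff]
      intro b hb
      exact hAc b hb a a.2
    have h2 := Nat.card_congr (φ.ker.equivMapOfInjective A.subtype A.subtype_injective).toEquiv
    rw [h2]
    exact Subgroup.card_le_of_le h1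
  obtain ⟨t, htA, htJ⟩ : ∃ t ∈ A, t ∉ J := by
    by_contra hcon
    push Not at hcon
    exact hAJ hcon
  have hCt : ∀ t ∈ A, C ≤ J ⊓ Subgroup.centralizer ({t} : Set G) := by
    intro t ht x hx
    refine ⟨hx.1, ?_⟩
    show x ∈ Subgroup.centralizer ({t} : Set G)
    rw [Subgroup.mem_centralizer_singleton_iff]
    have h9 : x ∈ Subgroup.centralizer (A : Set G) := hx.2
    rw [Subgroup.mem_centralizer_iff] at h9
    exact (h9 t ht).symm
  have hC6 : Nat.card C ≤ 2 ^ 6 :=
    (Subgroup.card_le_of_le (hCt t htA)).trans (Max.card_cent_le h hE (hA2 t htA) htJ (hAE t htA))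
  have hCp : ∃ m, Nat.card C = 2 ^ m := by
    have h1 : Nat.card C ∣ 2 ^ 10 := by
      rw [← Max.card_closure h hE]
      exact Subgroup.card_dvd_of_le inf_le_left
    obtain ⟨m, -, hm⟩ := (Nat.dvd_prime_pow Nat.prime_two).1 h1
    exact ⟨m, hm⟩
  by_cases hk1 : k ≤ 1
  · have h1 : Nat.card φ.range ≤ 2 := by
      rw [hk]
      calc 2 ^ k ≤ 2 ^ 1 := Nat.pow_le_pow_right (by norm_num) hk1
        _ = 2 := by norm_num
    calc Nat.card A = Nat.card φ.ker * Nat.card φ.range := hcardA.symm
      _ ≤ 2 ^ 6 * 2 := Nat.mul_le_mul (hkerle.trans hC6) h1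
      _ < 2 ^ 10 := by norm_num
  · have hC5 : Nat.card C ≤ 2 ^ 5 := by
      by_contra hcon
      push Not at hcon
      obtain ⟨m, hm⟩ := hCp
      have hm6 : m = 6 := by
        rw [hm] at hcon hC6
        have h1 := (Nat.pow_lt_pow_iff_right (by norm_num : 1 < 2)).1 hcon
        have h2 := (Nat.pow_le_pow_iff_right (by norm_num : 1 < 2)).1 hC6
        omega
      have heq : ∀ s ∈ A, s ∉ J → J ⊓ Subgroup.centralizer ({s} : Set G) = C := by
        intro s hs hsJ
        symm
        apply Subgroup.eq_of_le_of_card_ge (hCt s hs)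
        rw [hm, hm6]
        exact Max.card_cent_le h hE (hA2 s hs) hsJ (hAE s hs)
      have hall : ∀ s ∈ A, s ∉ J → t * s ∈ J := by
        intro s hs hsJ
        apply Max.mul_mem_of_cent_eq h hE (hA2 t htA) (hA2 s hs) (hAE t htA) (hAE s hs)
        intro j hj
        have h1 : j ∈ J ⊓ Subgroup.centralizer ({t} : Set G) ↔ j ∈ J ⊓ Subgroup.centralizer ({s} : Set G) := by
          rw [heq t htA htJ, heq s hs hsJ]
        rw [Subgroup.mem_inf, Subgroup.mem_inf, Subgroup.mem_centralizer_singleton_iff,
          Subgroup.mem_centralizer_singleton_iff] at h1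
        constructor
        · intro h2; exact (h1.1 ⟨hj, h2.eq⟩).2
        · intro h2; exact (h1.2 ⟨hj, h2.eq⟩).2
      have hrange : ((φ.range : Subgroup (Equiv.Perm E)) : Set (Equiv.Perm E)) ⊆ {1, φ ⟨t, htA⟩} := by
        rintro _ ⟨a, rfl⟩
        rw [Set.mem_insert_iff, Set.mem_singleton_iff]
        by_cases haJ : (a : G) ∈ J
        · exact Or.inl ((hker a).2 haJ)
        · right
          have h1 := hall a a.2 haJ
          have h2 : φ (⟨t, htA⟩ * a) = 1 := (hker _).2 h1
          rw [map_mul] at h2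
          have h3 : φ a * φ a = 1 := by
            rw [← map_mul]
            have : a * a = 1 := Subtype.ext (hA2 a a.2)
            rw [this, map_one]
          exact mul_right_cancel (h3.trans h2.symm)
      have h1 := Set.ncard_le_ncard hrange (Set.toFinite _)
      have h2 : ((φ.range : Subgroup (Equiv.Perm E)) : Set (Equiv.Perm E)).ncard = 2 ^ k := hk
      have h3 := Set.ncard_insert_le (1 : Equiv.Perm E) {φ ⟨t, htA⟩}
      rw [Set.ncard_singleton] at h3
      have h4 : 2 ^ 2 ≤ 2 ^ k := Nat.pow_le_pow_right (by norm_num) (by omega)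
      rw [h2] at h1
      have : (2 : ℕ) ^ 2 = 4 := by norm_num
      omega
    calc Nat.card A = Nat.card φ.ker * Nat.card φ.range := hcardA.symm
      _ ≤ 2 ^ 5 * 2 ^ 4 := Nat.mul_le_mul (hkerle.trans hC5) (by rw [hk]; exact Nat.pow_le_pow_right (by norm_num) hk4)
      _ < 2 ^ 10 := by norm_num

/-- **The members of the class in a Sylow 2-subgroup generate its Thompson subgroup.** -/
theorem thompson (h : H22 D) (T : Sylow 2 G) :
    Subgroup.closure {x : G | x ∈ D ∧ x ∈ (T : Subgroup G)} = Cfsg.thompsonSubgroupOf 2 (T : Subgroup G) := by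
  set E := inSub D (T : Subgroup G) with hEdef
  have hE : Max D E := max_of_sylow h.cls T
  have hJcard := Max.card_closure h hE
  set J := Subgroup.closure E with hJ
  have hsq : ∀ x ∈ E, x * x = 1 := fun x hx => mul_self h.cls.1 (hE.sub hx)
  have hJT : J ≤ (T : Subgroup G) := by
    rw [hJ, Subgroup.closure_le]
    exact fun x hx => hx.2
  have hTE : ∀ t ∈ (T : Subgroup G), ∀ a ∈ E, t * a * t⁻¹ ∈ E := by
    intro t ht a ha
    exact ⟨h.hconj t a ha.1, mul_mem (mul_mem ht ha.2) (inv_mem ht)⟩
  show J = (Cfsg.thompsonSubgroup 2 (T : Subgroup G)).map (T : Subgroup G).subtype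
  have hmax : Cfsg.maxElementaryAbelianSubgroups 2 (T : Subgroup G) = {J.subgroupOf (T : Subgroup G)} := by
    have hJel : Cfsg.IsElementaryAbelian 2 (J.subgroupOf (T : Subgroup G)) := by
      constructor
      · refine ⟨⟨?_⟩⟩
        rintro ⟨x, hx⟩ ⟨y, hy⟩
        apply Subtype.ext
        apply Subtype.ext
        exact (closure_comm hE.comm (Subgroup.mem_subgroupOf.1 hx) (Subgroup.mem_subgroupOf.1 hy)).eq
      · intro a ha
        apply Subtype.ext
        show (a : G) ^ 2 = 1
        rw [sq]
        exact closure_sq hE.comm hsq (Subgroup.mem_subgroupOf.1 ha)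
    have hJc : Nat.card (J.subgroupOf (T : Subgroup G)) = 2 ^ 10 := by
      rw [← hJcard]
      exact Nat.card_congr (Subgroup.subgroupOfEquivOfLe hJT).toEquiv
    have key : ∀ B : Subgroup (T : Subgroup G), Cfsg.IsElementaryAbelian 2 B → B ≤ J.subgroupOf (T : Subgroup G) ∨
        Nat.card B < 2 ^ 10 := by
      intro B hB
      by_cases hle : B ≤ J.subgroupOf (T : Subgroup G)
      · exact Or.inl hle
      · right
        have h1 := Nat.card_congr (B.equivMapOfInjective (T : Subgroup G).subtype
          (T : Subgroup G).subtype_injective).toEquiv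
        rw [h1]
        refine Max.card_lt h hE ?_ ?_ ?_ ?_
        · rintro _ ⟨a, ha, rfl⟩ _ ⟨b, hb, rfl⟩
          have := hB.1.is_comm.comm (⟨a, ha⟩ : B) ⟨b, hb⟩
          exact congrArg (fun x : B => ((x : (T : Subgroup G)) : G)) this
        · rintro _ ⟨a, ha, rfl⟩
          have := hB.2 a ha
          rw [sq] at this
          exact congrArg Subtype.val this
        · rintro _ ⟨a, ha, rfl⟩ e he
          exact hTE a a.2 e he
        · intro hle'
          apply hle
          intro b hb
          rw [Subgroup.mem_subgroupOf]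
          exact hle' ⟨b, hb, rfl⟩
    ext B
    rw [Set.mem_singleton_iff]
    constructor
    · rintro ⟨h1, h2⟩
      have h3 := h2 _ hJel
      rw [hJc] at h3
      rcases key B h1 with h4 | h4
      · exact Subgroup.eq_of_le_of_card_ge h4 (by rw [hJc]; exact h3)
      · omega
    · rintro rfl
      refine ⟨hJel, fun B hB => ?_⟩
      rcases key B hB with h4 | h4
      · exact Subgroup.card_le_of_le h4
      · rw [hJc]; exact h4.le
  rw [Cfsg.thompsonSubgroup, hmax, sSup_singleton, Subgroup.map_subgroupOf_eq_of_le hJT]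

end Cfsg.Agent.FiF4
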